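import Mathlib

/-!
# The principal ideal theorem in its group-theoretic form (helper566)

`transfer_trivial` : the transfer of a finite group `G` into `G'/G''` is trivial (Furtwängler; proof of Artin–Tate with
the augmentation ideal of `ℤ[G]` and a determinant over `ℤ[G/G']`).
-/

set_option autoImplicit false
set_option linter.unusedSectionVars false

namespace Cfsg.Agent.H566.PIT

open MonoidAlgebra

section Relations

/-- **Triangular relations** of a finite commutative group with respect to a family of generators. -/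
theorem exists_relations {Q : Type*} [CommGroup Q] [Finite Q] {N : ℕ} (x : Fin N → Q)
    (hx : Subgroup.closure (Set.range x) = ⊤) :
    ∃ m : Fin N → Fin N → ℤ, (∀ i k, k < i → m i k = 0) ∧ (∀ k, ∏ i, x i ^ m i k = 1) ∧
      ∏ k, m k k = Nat.card Q := by
  classical
  let C : ℕ → Subgroup Q := fun k => Subgroup.closure {y | ∃ i : Fin N, i.1 < k ∧ y = x i}
  have hCmono : ∀ k, C k ≤ C (k + 1) := fun k => Subgroup.closure_mono fun y ⟨i, hi, hy⟩ => ⟨i, by omega, hy⟩
  have hC0 : C 0 = ⊥ := by
    show Subgroup.closure _ = ⊥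
    rw [show {y : Q | ∃ i : Fin N, i.1 < 0 ∧ y = x i} = ∅ by
      ext y; simp]
    exact Subgroup.closure_empty
  have hCN : C N = ⊤ := by
    rw [← hx]
    show Subgroup.closure _ = _
    congr 1
    ext y
    constructor
    · rintro ⟨i, -, rfl⟩
      exact ⟨i, rfl⟩
    · rintro ⟨i, rfl⟩
      exact ⟨i, i.2, rfl⟩
  have hprod : ∀ k, ∏ j ∈ Finset.range k, (C j).relIndex (C (j + 1)) = Nat.card (C k) := by
    intro k
    induction k with
    | zero => rw [Finset.prod_range_zero, hC0, Subgroup.card_bot]
    | succ k ih =>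
      rw [Finset.prod_range_succ, ih]
      have h1 := Subgroup.relIndex_mul_relIndex ⊥ (C k) (C (k + 1)) bot_le (hCmono k)
      rw [Subgroup.relIndex_bot_left, Subgroup.relIndex_bot_left] at h1
      exact h1
  -- members of `C k`
  have hmem : ∀ k, ∀ y ∈ C k, ∃ a : Fin N → ℤ, (∀ i : Fin N, k ≤ i.1 → a i = 0) ∧ y = ∏ i, x i ^ a i := by
    intro k y hy
    induction hy using Subgroup.closure_induction with
    | mem y hy =>
      obtain ⟨i, hi, rfl⟩ := hy
      refine ⟨Pi.single i 1, fun j hj => ?_, ?_⟩
      · exact Pi.single_eq_of_ne (fun h => by rw [h] at hj; omega) _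
      · rw [Finset.prod_eq_single i]
        · rw [Pi.single_eq_same, zpow_one]
        · intro j _ hj
          rw [Pi.single_eq_of_ne hj, zpow_zero]
        · intro h
          exact absurd (Finset.mem_univ _) h
    | one => exact ⟨0, fun _ _ => rfl, by simp⟩
    | mul y z _ _ hy hz =>
      obtain ⟨a, ha, rfl⟩ := hy
      obtain ⟨b, hb, rfl⟩ := hz
      refine ⟨a + b, fun i hi => by rw [Pi.add_apply, ha i hi, hb i hi, add_zero], ?_⟩
      rw [← Finset.prod_mul_distrib]
      exact Finset.prod_congr rfl fun i _ => by rw [Pi.add_apply, zpow_add]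
    | inv y _ hy =>
      obtain ⟨a, ha, rfl⟩ := hy
      refine ⟨-a, fun i hi => by rw [Pi.neg_apply, ha i hi, neg_zero], ?_⟩
      rw [← Finset.prod_inv_distrib]
      exact Finset.prod_congr rfl fun i _ => by rw [Pi.neg_apply, zpow_neg]
  have hpow : ∀ k : Fin N, x k ^ (C k.1).relIndex (C (k.1 + 1)) ∈ C k.1 := by
    intro k
    have h1 : x k ∈ C (k.1 + 1) := Subgroup.subset_closure ⟨k, by omega, rfl⟩
    have h2 := Subgroup.pow_index_mem ((C k.1).subgroupOf (C (k.1 + 1))) ⟨x k, h1⟩
    exact h2
  choose a ha ha' using fun k : Fin N => hmem k.1 _ (hpow k)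
  refine ⟨fun i k => (if i = k then ((C k.1).relIndex (C (k.1 + 1)) : ℤ) else 0) - a k i, ?_, ?_, ?_⟩
  · intro i k hik
    show (if i = k then _ else 0) - a k i = 0
    rw [if_neg hik.ne', ha k i hik.le, sub_zero]
  · intro k
    have h1 : ∀ i, x i ^ ((if i = k then ((C k.1).relIndex (C (k.1 + 1)) : ℤ) else 0) - a k i) =
        x i ^ (if i = k then ((C k.1).relIndex (C (k.1 + 1)) : ℤ) else 0) * (x i ^ a k i)⁻¹ := by
      intro i
      rw [zpow_sub]
    rw [Finset.prod_congr rfl fun i _ => h1 i, Finset.prod_mul_distrib, Finset.prod_inv_distrib, ← ha' k,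
      Finset.prod_eq_single k]
    · rw [if_pos rfl, zpow_natCast, mul_inv_cancel]
    · intro j _ hj
      rw [if_neg hj, zpow_zero]
    · intro h
      exact absurd (Finset.mem_univ _) h
  · have h1 : ∀ k : Fin N, (if k = k then ((C k.1).relIndex (C (k.1 + 1)) : ℤ) else 0) - a k k =
        ((C k.1).relIndex (C (k.1 + 1)) : ℕ) := by
      intro k
      rw [if_pos rfl, ha k k le_rfl, sub_zero]
    rw [Finset.prod_congr rfl fun k _ => h1 k, ← Nat.cast_prod,
      Fin.prod_univ_eq_prod_range (fun k => (C k).relIndex (C (k + 1))) N, hprod, hCN]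
    simp

end Relations

section Ring

variable {G : Type*} [Group G]

/-- the projection to the group ring of `G/G'` -/
noncomputable def pi : MonoidAlgebra ℤ G →+* MonoidAlgebra ℤ (Abelianization G) :=
  MonoidAlgebra.mapDomainRingHom ℤ Abelianization.of

theorem pi_single (g : G) (n : ℤ) : pi (single g n) = single (Abelianization.of g) n := by
  simp [pi]

/-- the augmentation of the group ring of `G/G'` -/
noncomputable def eps : MonoidAlgebra ℤ (Abelianization G) →+* ℤ :=
  (MonoidAlgebra.lift ℤ ℤ (Abelianization G) (1 : Abelianization G →* ℤ)).toRingHom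

theorem eps_single (q : Abelianization G) (n : ℤ) : eps (single q n) = n := by
  simp [eps]

/-- `g - 1` -/
noncomputable def dl (g : G) : MonoidAlgebra ℤ G := single g 1 - 1

theorem eps_pi_dl (g : G) : eps (pi (dl g)) = 0 := by
  rw [dl, map_sub, map_sub, map_one, map_one, pi_single, eps_single, sub_self]

theorem pi_surjective : Function.Surjective (pi : MonoidAlgebra ℤ G →+* MonoidAlgebra ℤ (Abelianization G)) := by
  intro x
  induction x using MonoidAlgebra.induction_linear with
  | zero => exact ⟨0, map_zero _⟩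
  | add x y hx hy =>
    obtain ⟨a, rfl⟩ := hx
    obtain ⟨b, rfl⟩ := hy
    exact ⟨a + b, map_add _ _ _⟩
  | single q n =>
    obtain ⟨g, rfl⟩ : ∃ g, Abelianization.of g = q := QuotientGroup.mk_surjective q
    exact ⟨single g n, pi_single g n⟩

/-- additive functions on a group ring from functions on the group -/
noncomputable def ext {M A : Type*} [AddCommGroup A] (f : M → A) : MonoidAlgebra ℤ M →+ A :=
  (Finsupp.liftAddHom fun m => zmultiplesHom A (f m)).comp
    (MonoidAlgebra.coeffAddEquiv : MonoidAlgebra ℤ M ≃+ (M →₀ ℤ)).toAddMonoidHom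

theorem ext_single {M A : Type*} [AddCommGroup A] (f : M → A) (m : M) (n : ℤ) : ext f (single m n) = n • f m := by
  show Finsupp.liftAddHom (fun m => zmultiplesHom A (f m)) (Finsupp.single m n) = n • f m
  rw [Finsupp.liftAddHom_apply_single]
  rfl

/-- **Relations lift to the group ring.** -/
theorem exists_mu {N : ℕ} (σ : Fin N → G) (hσ : Function.Surjective σ) (m : Fin N → ℤ)
    (hm : ∏ i, (Abelianization.of (σ i)) ^ m i = 1) :
    ∃ μ : Fin N → MonoidAlgebra ℤ G, (∀ i, eps (pi (μ i)) = m i) ∧ ∑ i, dl (σ i) * μ i = 0 := by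
  classical
  let J : AddSubgroup (MonoidAlgebra ℤ G) :=
    { carrier := {x | ∃ y : Fin N → MonoidAlgebra ℤ G, (∀ i, eps (pi (y i)) = 0) ∧ x = ∑ i, dl (σ i) * y i}
      zero_mem' := ⟨0, fun i => by simp, by simp⟩
      add_mem' := by
        rintro _ _ ⟨y, hy, rfl⟩ ⟨z, hz, rfl⟩
        refine ⟨y + z, fun i => by rw [Pi.add_apply, map_add, map_add, hy, hz, add_zero], ?_⟩
        rw [← Finset.sum_add_distrib]
        exact Finset.sum_congr rfl fun i _ => by rw [Pi.add_apply, mul_add]
      neg_mem' := by
        rintro _ ⟨y, hy, rfl⟩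
        refine ⟨-y, fun i => by rw [Pi.neg_apply, map_neg, map_neg, hy, neg_zero], ?_⟩
        rw [← Finset.sum_neg_distrib]
        exact Finset.sum_congr rfl fun i _ => by rw [Pi.neg_apply, mul_neg] }
  have hJ : ∀ g h : G, dl g * dl h ∈ J := by
    intro g h
    obtain ⟨i, rfl⟩ := hσ g
    refine ⟨Pi.single i (dl h), fun j => ?_, ?_⟩
    · by_cases hj : j = i
      · subst hj
        rw [Pi.single_eq_same, eps_pi_dl]
      · rw [Pi.single_eq_of_ne hj, map_zero, map_zero]
    · rw [Finset.sum_eq_single i]
      · rw [Pi.single_eq_same]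
      · intro j _ hj
        rw [Pi.single_eq_of_ne hj, mul_zero]
      · intro h
        exact absurd (Finset.mem_univ _) h
  have hmul : ∀ g h : G, dl (g * h) = dl g * dl h + (dl g + dl h) := by
    intro g h
    have h1 : (single (g * h) 1 : MonoidAlgebra ℤ G) = single g 1 * single h 1 := by
      rw [MonoidAlgebra.single_mul_single, one_mul]
    rw [dl, dl, dl, h1]
    noncomm_ring
  let φ : G →* Multiplicative (MonoidAlgebra ℤ G ⧸ J) :=
    { toFun := fun g => Multiplicative.ofAdd (QuotientAddGroup.mk (dl g))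
      map_one' := by
        have h1 : dl (1 : G) = 0 := by
          rw [dl, ← MonoidAlgebra.one_def, sub_self]
        rw [h1]
        rfl
      map_mul' := by
        intro g h
        rw [← ofAdd_add, ← QuotientAddGroup.mk_add]
        congr 1
        rw [hmul, QuotientAddGroup.mk_add, (QuotientAddGroup.eq_zero_iff _).2 (hJ g h), zero_add] }
  have h1 := congrArg (Abelianization.lift φ) hm
  rw [map_prod, map_one] at h1
  have h2 : ∏ i, φ (σ i) ^ m i = 1 := by
    rw [← h1]
    exact Finset.prod_congr rfl fun i _ => by rw [map_zpow, Abelianization.lift_apply_of]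
  have h3 : (∑ i, m i • dl (σ i)) ∈ J := by
    rw [← QuotientAddGroup.eq_zero_iff]
    have h4 := congrArg Multiplicative.toAdd h2
    rw [toAdd_prod, toAdd_one] at h4
    rw [← h4]
    rw [← QuotientAddGroup.mk'_apply, map_sum]
    exact Finset.sum_congr rfl fun i _ => by
      rw [map_zsmul, toAdd_zpow]
      rfl
  obtain ⟨y, hy, hy'⟩ := h3
  refine ⟨fun i => (m i : MonoidAlgebra ℤ G) - y i, fun i => ?_, ?_⟩
  · rw [map_sub, map_sub, hy, sub_zero, map_intCast, map_intCast, Int.cast_id]
  · have h5 : ∀ i, dl (σ i) * ((m i : MonoidAlgebra ℤ G) - y i) = m i • dl (σ i) - dl (σ i) * y i := by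
      intro i
      rw [mul_sub, zsmul_eq_mul, Int.cast_comm]
    rw [Finset.sum_congr rfl fun i _ => h5 i, Finset.sum_sub_distrib, hy', sub_self]

end Ring

section Det

variable {G : Type*} [Group G] [Finite G]

/-- an element annihilated by the augmentation ideal -/
theorem eq_smul_norm {Q : Type*} [CommGroup Q] [Fintype Q] (D : MonoidAlgebra ℤ Q)
    (h : ∀ q : Q, (single q 1 - 1) * D = 0) : D = D.coeff 1 • ∑ q : Q, single q (1 : ℤ) := by
  classical
  have h1 : ∀ q : Q, D.coeff q = D.coeff 1 := by
    intro q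
    have h2 := h q
    rw [sub_mul, one_mul, sub_eq_zero] at h2
    have h3 := congrArg (fun x : MonoidAlgebra ℤ Q => x.coeff q) h2
    rw [MonoidAlgebra.coeff_single_mul_apply, one_mul, inv_mul_cancel] at h3
    exact h3.symm
  rw [← MonoidAlgebra.coeff_inj]
  ext q
  rw [h1 q, MonoidAlgebra.coeff_smul_apply, MonoidAlgebra.coeff_sum, Finsupp.finsetSum_apply, Finset.sum_eq_single q]
  · simp
  · intro b _ hb
    rw [MonoidAlgebra.coeff_single, Finsupp.single_eq_of_ne hb.symm]
  · intro h
    exact absurd (Finset.mem_univ _) h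

/-- **The determinant argument.** -/
theorem main_mul {A : Type*} [AddCommGroup A] (L : MonoidAlgebra ℤ G →+ A)
    (hL : ∀ (g : G) (κ : MonoidAlgebra ℤ G), pi κ = 0 → L (dl g * κ) = 0) (ν : MonoidAlgebra ℤ G)
    [Fintype (Abelianization G)] (hν : pi ν = ∑ q : Abelianization G, single q (1 : ℤ)) (g : G) :
    L (dl g * ν) = 0 := by
  classical
  obtain ⟨N, ⟨e⟩⟩ := Finite.exists_equiv_fin G
  let σ : Fin N → G := e.symm
  have hσ : Function.Surjective σ := e.symm.surjective
  obtain ⟨m, hm0, hm1, hm2⟩ := exists_relations (fun i => Abelianization.of (σ i)) (by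
    rw [eq_top_iff]
    intro q _
    obtain ⟨h, rfl⟩ : ∃ g, Abelianization.of g = q := QuotientGroup.mk_surjective q
    obtain ⟨i, rfl⟩ := hσ h
    exact Subgroup.subset_closure ⟨i, rfl⟩)
  choose μ hμ1 hμ2 using fun k => exists_mu σ hσ (fun i => m i k) (hm1 k)
  -- `μ k i`
  let M : Matrix (Fin N) (Fin N) (MonoidAlgebra ℤ (Abelianization G)) := fun i k => pi (μ k i)
  let v : Fin N → MonoidAlgebra ℤ (Abelianization G) := fun i => pi (dl (σ i))
  have hv : Matrix.vecMul v M = 0 := by
    funext k
    show ∑ i, v i * M i k = 0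
    have := congrArg pi (hμ2 k)
    rw [map_sum, map_zero] at this
    rw [← this]
    exact Finset.sum_congr rfl fun i _ => (map_mul _ _ _).symm
  have hD : ∀ i, v i * M.det = 0 := by
    have h1 : Matrix.vecMul (Matrix.vecMul v M) M.adjugate = 0 := by rw [hv, Matrix.zero_vecMul]
    rw [Matrix.vecMul_vecMul, Matrix.mul_adjugate, Matrix.vecMul_smul, Matrix.vecMul_one] at h1
    intro i
    have := congrFun h1 i
    rw [Pi.smul_apply, smul_eq_mul, mul_comm] at this
    exact this
  have hD1 : M.det = ∑ q : Abelianization G, single q (1 : ℤ) := by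
    have h1 := eq_smul_norm M.det (by
      intro q
      obtain ⟨h, rfl⟩ : ∃ g, Abelianization.of g = q := QuotientGroup.mk_surjective q
      obtain ⟨i, rfl⟩ := hσ h
      have := hD i
      have h2 : v i = single (Abelianization.of (σ i)) 1 - 1 := by
        show pi (dl (σ i)) = _
        rw [dl, map_sub, map_one, pi_single]
      rw [h2] at this
      exact this)
    have h2 : eps M.det = Nat.card (Abelianization G) := by
      rw [RingHom.map_det, ← hm2]
      have h3 : (eps : MonoidAlgebra ℤ (Abelianization G) →+* ℤ).mapMatrix M = Matrix.of m := by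
        ext i k
        exact hμ1 k i
      rw [h3]
      refine Matrix.det_of_isUpperTriangular ?_
      intro i k hik
      exact hm0 i k hik
    have h3 : eps (∑ q : Abelianization G, single q (1 : ℤ)) = Nat.card (Abelianization G) := by
      rw [map_sum, Finset.sum_congr rfl fun q _ => eps_single q 1]
      simp
    have h4 : M.det.coeff 1 = 1 := by
      have h5 := congrArg eps h1
      rw [map_zsmul, h2, h3, smul_eq_mul] at h5
      have h6 : (Nat.card (Abelianization G) : ℤ) ≠ 0 := by exact_mod_cast Nat.card_pos.ne'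
      have h7 : M.det.coeff 1 * (Nat.card (Abelianization G) : ℤ) = 1 * (Nat.card (Abelianization G) : ℤ) := by
        rw [← h5, one_mul]
      exact mul_right_cancel₀ h6 h7
    rw [h4, one_smul] at h1
    exact h1
  -- lift the adjugate
  choose Λ hΛ using fun k j => pi_surjective (M.adjugate k j)
  obtain ⟨j, rfl⟩ := hσ g
  let κ : Fin N → MonoidAlgebra ℤ G := fun i => ∑ k, μ k i * Λ k j - if i = j then ν else 0
  have hκ : ∀ i, pi (κ i) = 0 := by
    intro i
    have h1 : ∑ k, M i k * M.adjugate k j = (M.det • (1 : Matrix (Fin N) (Fin N) _)) i j := by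
      rw [← Matrix.mul_adjugate]; rfl
    show pi (∑ k, μ k i * Λ k j - if i = j then ν else 0) = 0
    rw [map_sub, map_sum, Finset.sum_congr rfl fun k _ => (map_mul pi (μ k i) (Λ k j)).trans
      (by rw [hΛ] : _ = M i k * M.adjugate k j), h1, Matrix.smul_apply, Matrix.one_apply, hD1]
    by_cases hij : i = j
    · rw [if_pos hij, if_pos hij, hν, smul_eq_mul, mul_one, sub_self]
    · rw [if_neg hij, if_neg hij, map_zero, smul_zero, sub_zero]
  have h1 : ∑ i, dl (σ i) * ∑ k, μ k i * Λ k j = 0 := by
    have h2 : ∀ i, dl (σ i) * ∑ k, μ k i * Λ k j = ∑ k, dl (σ i) * μ k i * Λ k j := by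
      intro i
      rw [Finset.mul_sum]
      exact Finset.sum_congr rfl fun k _ => (mul_assoc _ _ _).symm
    rw [Finset.sum_congr rfl fun i _ => h2 i, Finset.sum_comm]
    apply Finset.sum_eq_zero
    intro k _
    rw [← Finset.sum_mul, hμ2 k, zero_mul]
  have h2 : ∀ i, dl (σ i) * ∑ k, μ k i * Λ k j = dl (σ i) * κ i + (if i = j then dl (σ i) * ν else 0) := by
    intro i
    show _ = dl (σ i) * (∑ k, μ k i * Λ k j - if i = j then ν else 0) + _
    by_cases hij : i = j
    · rw [if_pos hij, if_pos hij, mul_sub, sub_add_cancel]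
    · rw [if_neg hij, if_neg hij, sub_zero, add_zero]
  rw [Finset.sum_congr rfl fun i _ => h2 i, Finset.sum_add_distrib, Finset.sum_ite_eq' Finset.univ j,
    if_pos (Finset.mem_univ j)] at h1
  have h3 := congrArg L h1
  rw [map_add, map_sum, Finset.sum_eq_zero fun i _ => hL (σ i) (κ i) (hκ i), zero_add, map_zero] at h3
  exact h3

end Det

section Transfer

variable {G : Type*} [Group G] [Finite G]

/-- representatives of the cosets of `G'` -/
noncomputable def rep (q : Abelianization G) : G :=
  Function.surjInv (QuotientGroup.mk_surjective (s := commutator G)) q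

theorem of_rep (q : Abelianization G) : Abelianization.of (rep q) = q :=
  Function.surjInv_eq (QuotientGroup.mk_surjective (s := commutator G)) q

theorem inv_mul_mem {g h : G} (e : Abelianization.of g = Abelianization.of h) : g⁻¹ * h ∈ commutator G :=
  QuotientGroup.eq.1 e

/-- the component in `G'/G''` -/
noncomputable def ell (g : G) : Additive (Abelianization ↥(commutator G)) :=
  Additive.ofMul (Abelianization.of ⟨(rep (Abelianization.of g))⁻¹ * g, inv_mul_mem (of_rep _)⟩)

theorem ell_mul (g : G) (h : ↥(commutator G)) : ell (g * h) = ell g + Additive.ofMul (Abelianization.of h) := by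
  have h1 : Abelianization.of (g * (h : G)) = Abelianization.of g := by
    show (QuotientGroup.mk (g * (h : G)) : G ⧸ commutator G) = QuotientGroup.mk g
    rw [eq_comm, QuotientGroup.eq, inv_mul_cancel_left]
    exact h.2
  show Additive.ofMul (Abelianization.of _) = Additive.ofMul (Abelianization.of _) + Additive.ofMul (Abelianization.of _)
  rw [← ofMul_mul, ← map_mul]
  congr 2
  apply Subtype.ext
  show (rep (Abelianization.of (g * (h : G))))⁻¹ * (g * h) = (rep (Abelianization.of g))⁻¹ * g * h
  rw [h1, mul_assoc]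

theorem ell_rep (q : Abelianization G) : ell (rep q) = 0 := by
  show Additive.ofMul (Abelianization.of _) = 0
  have h1 : (⟨(rep (Abelianization.of (rep q)))⁻¹ * rep q, inv_mul_mem (of_rep _)⟩ : ↥(commutator G)) = 1 := by
    apply Subtype.ext
    show (rep (Abelianization.of (rep q)))⁻¹ * rep q = 1
    rw [of_rep, inv_mul_cancel]
  rw [h1, map_one]
  rfl

theorem ell_mul' (g' g : G) : ell (g' * g) = ell g + ell (g' * rep (Abelianization.of g)) := by
  have h1 := ell_mul (g' * rep (Abelianization.of g)) ⟨(rep (Abelianization.of g))⁻¹ * g, inv_mul_mem (of_rep _)⟩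
  rw [show g' * rep (Abelianization.of g) * ((rep (Abelianization.of g))⁻¹ * g) = g' * g by group] at h1
  rw [h1, add_comm]
  rfl

/-- the extension of `ell` -/
noncomputable def Lf : MonoidAlgebra ℤ G →+ Additive (Abelianization ↥(commutator G)) := ext ell

theorem Lf_mul (g' : G) (κ : MonoidAlgebra ℤ G) :
    Lf (single g' 1 * κ) = Lf κ + ext (fun q : Abelianization G => ell (g' * rep q)) (pi κ) := by
  induction κ using MonoidAlgebra.induction_linear with
  | zero => simp
  | add x y hx hy =>
    rw [mul_add, map_add, hx, hy, map_add, map_add, map_add]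
    abel
  | single g n =>
    rw [MonoidAlgebra.single_mul_single, one_mul, pi_single, Lf, ext_single, ext_single, ext_single, ell_mul', smul_add]

theorem Lf_dl (g : G) (κ : MonoidAlgebra ℤ G) (h : pi κ = 0) : Lf (dl g * κ) = 0 := by
  rw [dl, sub_mul, one_mul, map_sub, Lf_mul, h, map_zero, add_zero, sub_self]

theorem sum_ell [Fintype (Abelianization G)] (g : G) : ∑ q : Abelianization G, ell (g * rep q) = 0 := by
  have h1 := main_mul Lf Lf_dl (∑ q : Abelianization G, single (rep q) (1 : ℤ)) (by
    rw [map_sum]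
    exact Finset.sum_congr rfl fun q _ => by rw [pi_single, of_rep]) g
  rw [dl, sub_mul, one_mul, map_sub, Lf_mul, add_sub_cancel_left, map_sum, map_sum] at h1
  rw [← h1]
  exact Finset.sum_congr rfl fun q _ => by rw [pi_single, of_rep, ext_single, one_smul]

theorem smul_mk (g : G) (q : G ⧸ commutator G) : g • q = Abelianization.of (g * rep q) := by
  conv_lhs => rw [← of_rep (G := G) q]
  rfl

/-- **The principal ideal theorem.** -/
theorem transfer_trivial :
    MonoidHom.transfer (Abelianization.of : ↥(commutator G) →* Abelianization ↥(commutator G)) =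
      (1 : G →* Abelianization ↥(commutator G)) := by
  refine MonoidHom.ext fun g => ?_
  let i1 : Fintype (G ⧸ commutator G) := (commutator G).fintypeQuotientOfFiniteIndex
  let T : (commutator G).LeftTransversal :=
    ⟨Set.range (fun q : G ⧸ commutator G => rep q), Subgroup.isComplement_range_left fun q => of_rep q⟩
  have hT : ∀ q : G ⧸ commutator G, (T.2.leftQuotientEquiv q : G) = rep q := fun q =>
    Subgroup.IsComplement.leftQuotientEquiv_apply (f := fun q : G ⧸ commutator G => rep q) (fun q => of_rep q) q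
  have hgT : ∀ q : G ⧸ commutator G, ((g • T).2.leftQuotientEquiv q : G) = g * rep (G := G) (g⁻¹ • q) := fun q => by
    rw [Subgroup.smul_apply_eq_smul_apply_inv_smul, hT, smul_eq_mul]
  rw [MonoidHom.transfer_def _ T g]
  have h1 := @sum_ell G _ _ i1 g
  have h2 : Subgroup.leftTransversals.diff Abelianization.of T (g • T) =
      ∏ q : G ⧸ commutator G, Additive.toMul (ell (g * rep (G := G) (g⁻¹ • q))) := by
    unfold Subgroup.leftTransversals.diff
    refine Finset.prod_congr rfl fun q _ => ?_
    show Abelianization.of _ = Abelianization.of _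
    congr 1
    apply Subtype.ext
    show ((T.2.leftQuotientEquiv q : G))⁻¹ * ((g • T).2.leftQuotientEquiv q : G) =
      (rep (Abelianization.of (g * rep (G := G) (g⁻¹ • q))))⁻¹ * (g * rep (G := G) (g⁻¹ • q))
    rw [hT, hgT, ← smul_mk, smul_inv_smul]
  have h3 : ∏ q : G ⧸ commutator G, Additive.toMul (ell (g * rep (G := G) (g⁻¹ • q))) =
      ∏ q : G ⧸ commutator G, Additive.toMul (ell (g * rep (G := G) q)) :=
    Equiv.prod_comp (MulAction.toPerm (g⁻¹ : G) : Equiv.Perm (G ⧸ commutator G))
      fun q => Additive.toMul (ell (g * rep (G := G) q))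
  have h4 := congrArg Additive.toMul h1
  rw [toMul_sum] at h4
  rw [h2, h3]
  exact h4

end Transfer

end Cfsg.Agent.H566.PIT
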